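import Mathlib.GroupTheory.Commutator.Basic
import Cfsg.Agent.Lib.FusionBasics.Normal
import Cfsg.Agent.Lib.FusionSub.NormalCriterion

/-!
Constrained systems: a criterion, and saturated subsystems of a constrained system over normal
subgroups of `S` are constrained.
-/

set_option autoImplicit false
set_option linter.style.haveILetI false

namespace CfsgLib.Alperin

open Cfsg Cfsg.FusionSystem
open scoped commutatorElement

variable {Ω : Type*} [Group Ω] {S : Subgroup Ω} [Finite S] {p : ℕ} [Fact p.Prime]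

/-- A strongly closed subgroup with a strongly closed central series whose centralizer has
commutator subgroup inside it gives a normal centric subgroup. -/
theorem isConstrained_of_series (hS : IsPGroup p S) {F : FusionSystem S} (hF : F.IsSaturated p)
    {n : ℕ} (U : Subgroup Ω) (Us : Fin (n + 1) → Subgroup Ω) (h0 : Us 0 = ⊥)
    (hn : Us (Fin.last n) = U) (hsc : ∀ i : Fin n, F.StronglyClosed (Us i.succ))
    (hle : ∀ i, Us i ≤ U)
    (hc : ∀ i : Fin n, ⁅U, Us i.succ⁆ ≤ Us (Fin.castSucc i))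
    (hX : ⁅centralizerIn S U, centralizerIn S U⁆ ≤ U) : F.IsConstrained p := by
  have hUn := CfsgLib.FusionSub.isNormal_of_central_series hS hF U Us h0 hn hsc hc
  have hUsc := CfsgLib.FusionSub.isNormal_stronglyClosed hUn
  set X := centralizerIn S U with hXdef
  set Y := U ⊔ X with hY
  have hXn : X ≤ Subgroup.normalizer (U : Set Ω) :=
    (centralizerIn_le_normalizerIn S U).trans inf_le_right
  have hYsc : F.StronglyClosed Y := by
    refine ⟨sup_le hUn.1 (centralizerIn_le S U), fun R hR φ hφ x => ?_⟩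
    obtain ⟨ψ, hψ, hψx, hψU⟩ := hUn.2 R φ hφ
    have hx : (x : Ω) ∈ ((X ⊔ U : Subgroup Ω) : Set Ω) := by
      rw [sup_comm]; exact hR x.2
    rw [Subgroup.coe_mul_of_left_le_normalizer_right X U hXn] at hx
    obtain ⟨c, hc, u, hu, hcu⟩ := Set.mem_mul.mp hx
    have hcm : c ∈ R ⊔ U := by
      have : c = (x : Ω) * u⁻¹ := by rw [← hcu, mul_inv_cancel_right]
      rw [this]
      exact Subgroup.mul_mem _ (Subgroup.mem_sup_left x.2) (Subgroup.mem_sup_right (U.inv_mem hu))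
    have e : (Subgroup.inclusion le_sup_left x : ↥(R ⊔ U)) =
        ⟨c, hcm⟩ * ⟨u, Subgroup.mem_sup_right hu⟩ := Subtype.ext hcu.symm
    rw [← hψx, e, map_mul]
    exact Subgroup.mul_mem _
      (Subgroup.mem_sup_right (apply_mem_centralizerIn hψ le_sup_right hψU _ hc.2))
      (Subgroup.mem_sup_left (hψU.le ⟨_, hu, rfl⟩))
  have hcomm : ⁅Y, Y⁆ ≤ U := by
    have hUU : ⁅U, U⁆ ≤ U := Subgroup.commutator_le.mpr fun a ha b hb =>
      U.mul_mem (U.mul_mem (U.mul_mem ha hb) (U.inv_mem ha)) (U.inv_mem hb)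
    refine Subgroup.commutator_le.mpr fun a ha b hb => ?_
    have hYn : Y ≤ Subgroup.normalizer (U : Set Ω) := sup_le Subgroup.le_normalizer hXn
    rw [hY, sup_comm] at ha hb
    have ha' : a ∈ ((X ⊔ U : Subgroup Ω) : Set Ω) := ha
    have hb' : b ∈ ((X ⊔ U : Subgroup Ω) : Set Ω) := hb
    rw [Subgroup.coe_mul_of_left_le_normalizer_right X U hXn] at ha' hb'
    obtain ⟨x, hx, u, hu, rfl⟩ := Set.mem_mul.mp ha'
    obtain ⟨y, hy, v, hv, rfl⟩ := Set.mem_mul.mp hb'
    have hxy := hX (Subgroup.commutator_mem_commutator hx hy)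
    have huv := hUU (Subgroup.commutator_mem_commutator hu hv)
    have h1 : u * y = y * u := hy.2 u hu
    have h2 : v * x = x * v := hx.2 v hv
    have h3 : ∀ w ∈ U, x * w = w * x := fun w hw => (hx.2 w hw).symm
    have h4 : ∀ w ∈ U, y * w = w * y := fun w hw => (hy.2 w hw).symm
    have h5 := h4 _ (U.mul_mem (U.mul_mem (U.mul_mem hu hv) (U.inv_mem hu)) (U.inv_mem hv))
    have h6 := h3 _ (U.mul_mem (U.mul_mem (U.mul_mem hu hv) (U.inv_mem hu)) (U.inv_mem hv))
    have e : ⁅x * u, y * v⁆ = ⁅x, y⁆ * ⁅u, v⁆ := by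
      simp only [commutatorElement_def] at *
      calc x * u * (y * v) * (x * u)⁻¹ * (y * v)⁻¹
          = x * (u * y) * v * u⁻¹ * x⁻¹ * v⁻¹ * y⁻¹ := by group
        _ = x * y * (u * v * u⁻¹) * (x⁻¹ * v⁻¹) * y⁻¹ := by rw [h1]; group
        _ = x * y * (u * v * u⁻¹) * (v * x)⁻¹ * y⁻¹ := by group
        _ = x * y * (u * v * u⁻¹) * (x * v)⁻¹ * y⁻¹ := by rw [h2]
        _ = x * (y * (u * v * u⁻¹ * v⁻¹)) * x⁻¹ * y⁻¹ := by group
        _ = x * (u * v * u⁻¹ * v⁻¹ * y) * x⁻¹ * y⁻¹ := by rw [h5]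
        _ = x * (u * v * u⁻¹ * v⁻¹) * y * x⁻¹ * y⁻¹ := by group
        _ = u * v * u⁻¹ * v⁻¹ * (x * y * x⁻¹ * y⁻¹) := by rw [h6]; group
        _ = _ := by
          have h7 : ∀ w ∈ U, x * y * x⁻¹ * y⁻¹ * w = w * (x * y * x⁻¹ * y⁻¹) := fun w hw =>
            ((Subgroup.mul_mem (centralizerIn S U) (Subgroup.mul_mem _ (Subgroup.mul_mem _ hx hy)
              (Subgroup.inv_mem _ hx)) (Subgroup.inv_mem _ hy)).2 w hw).symm
          exact (h7 _ (U.mul_mem (U.mul_mem (U.mul_mem hu hv) (U.inv_mem hu)) (U.inv_mem hv))).symm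
    rw [e]
    exact U.mul_mem hxy huv
  have hYn : F.IsNormal Y := by
    refine CfsgLib.FusionSub.isNormal_of_central_series hS hF Y (Fin.snoc Us Y) ?_
      (Fin.snoc_last _ _) (fun i => ?_) (fun i => ?_)
    · rw [← h0, ← Fin.snoc_castSucc (α := fun _ => Subgroup Ω) Y Us 0]
      rfl
    · induction i using Fin.lastCases with
      | last => rw [Fin.succ_last, Fin.snoc_last]; exact hYsc
      | cast i => rw [← Fin.castSucc_succ, Fin.snoc_castSucc]; exact hsc i
    · induction i using Fin.lastCases with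
      | last => rw [Fin.succ_last, Fin.snoc_last, Fin.snoc_castSucc, hn]; exact hcomm
      | cast i =>
        rw [← Fin.castSucc_succ, Fin.snoc_castSucc, Fin.snoc_castSucc]
        refine Subgroup.commutator_le.mpr fun a ha b hb => ?_
        rw [hY, sup_comm] at ha
        have ha' : a ∈ ((X ⊔ U : Subgroup Ω) : Set Ω) := ha
        rw [Subgroup.coe_mul_of_left_le_normalizer_right X U hXn] at ha'
        obtain ⟨x, hx, u, hu, rfl⟩ := Set.mem_mul.mp ha'
        have h1 := hc i (Subgroup.commutator_mem_commutator hu hb)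
        have h2 : ⁅u, b⁆ * x = x * ⁅u, b⁆ := hx.2 _ (hle _ h1)
        have h3 : b * x = x * b := hx.2 b (hle _ hb)
        have e : ⁅x * u, b⁆ = ⁅u, b⁆ := by
          simp only [commutatorElement_def] at *
          calc x * u * b * (x * u)⁻¹ * b⁻¹ = x * (u * b * u⁻¹ * b⁻¹) * (b * x⁻¹ * b⁻¹) := by group
            _ = u * b * u⁻¹ * b⁻¹ * x * (b * x⁻¹ * b⁻¹) := by rw [← h2]
            _ = u * b * u⁻¹ * b⁻¹ * ((x * b) * x⁻¹ * b⁻¹) := by group
            _ = _ := by rw [← h3]; group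
        rw [e]
        exact h1
  refine ⟨hF, Y, hYn, hYn.1, fun Q hQ c hc => ?_⟩
  have hQY : Q ≤ Y := by
    obtain ⟨φ, hφ, rfl⟩ := hQ
    rintro _ ⟨x, rfl⟩
    exact hYsc.2 Y le_rfl φ hφ x
  haveI := finite_of_le hYsc.1
  rw [Subgroup.eq_of_le_of_card_ge hQY (IsConj.card_eq hQ).ge] at hc ⊢
  exact Subgroup.mem_sup_right
    (⟨hc.1, fun u hu => hc.2 u (Subgroup.mem_sup_left hu)⟩ : c ∈ centralizerIn S U)

variable {Ω' : Type*} [Group Ω']

/-- A saturated system over a subgroup that is normal in `S`, all of whose maps are maps of the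
constrained system `F` read through the injective map `ι`, is constrained. -/
theorem isConstrained_of_subsystem (hS : IsPGroup p S) {F : FusionSystem S}
    (hF : F.IsConstrained p) {T : Subgroup Ω'} [Finite T] (ι : Ω' →* Ω)
    (hι : Function.Injective ι) (hTS : T.map ι ≤ S)
    (hTn : ∀ s ∈ S, ∀ t ∈ T, s * ι t * s⁻¹ ∈ T.map ι)
    {E : FusionSystem T} (hE : E.IsSaturated p)
    (hsub : ∀ (P : Subgroup Ω') (φ : P →* Ω'), φ ∈ E.Hom P → ∃ ψ ∈ F.Hom (P.map ι),
      ∀ (x : P) (hx : ι x ∈ P.map ι), ψ ⟨ι x, hx⟩ = ι (φ x)) : E.IsConstrained p := by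
  obtain ⟨-, Q, hQn, hQc⟩ := hF
  have hT : IsPGroup p T := (isPGroup_of_le hS hTS).of_injective
    ((ι.comp T.subtype).codRestrict _ fun t => ⟨t, t.2, rfl⟩)
    (fun a b h => Subtype.ext (hι (congrArg Subtype.val h)))
  haveI := finite_of_le hQn.1
  obtain ⟨n, Qs, h0, hn, hmono, hchar, hc⟩ :=
    CfsgLib.FusionBasics.exists_central_series (isPGroup_of_le hS hQn.1)
  set U : Subgroup Ω' := T ⊓ Q.comap ι with hU
  refine isConstrained_of_series hT hE U (fun i => T ⊓ (Qs i).comap ι) ?_ (by rw [hn])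
    (fun i => ?_) (fun i => inf_le_inf_left _ (Subgroup.comap_mono (hchar i).1)) (fun i => ?_) ?_
  · rw [h0, MonoidHom.comap_bot, (MonoidHom.ker_eq_bot_iff ι).mpr hι, inf_bot_eq]
  · have hV := CfsgLib.FusionBasics.stronglyClosed_of_characteristic hQn (hchar i.succ).1
      (hchar i.succ).2
    refine ⟨inf_le_left, fun R hR φ hφ x => ⟨apply_mem hφ x, ?_⟩⟩
    obtain ⟨ψ, hψ, hψx⟩ := hsub R φ hφ
    have h1 := hV.2 (R.map ι) (by rintro _ ⟨y, hy, rfl⟩; exact (hR hy).2) ψ hψ ⟨ι x, x, x.2, rfl⟩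
    have h2 : ι (φ x) ∈ Qs i.succ := (hψx x ⟨x, x.2, rfl⟩) ▸ h1
    exact h2
  · refine Subgroup.commutator_le.mpr fun a ha b hb => ⟨?_, ?_⟩
    · exact T.mul_mem (T.mul_mem (T.mul_mem ha.1 hb.1) (T.inv_mem ha.1)) (T.inv_mem hb.1)
    · refine Subgroup.mem_comap.mpr ?_
      rw [map_commutatorElement]
      exact hc i (Subgroup.commutator_mem_commutator ha.2 hb.2)
  · set A : Subgroup Ω := (centralizerIn T U).map ι
    have hAQ : ⁅A, Q⁆ ≤ U.map ι := Subgroup.commutator_le.mpr fun a ha q hq => by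
      obtain ⟨x, hx, rfl⟩ := ha
      have h1 : ⁅ι x, q⁆ ∈ Q := by
        have hn := CfsgLib.FusionSub.stronglyClosed_conj
          (CfsgLib.FusionSub.isNormal_stronglyClosed hQn) (hTS ⟨x, hx.1, rfl⟩) hq
        exact Q.mul_mem hn (Q.inv_mem hq)
      obtain ⟨t, ht, hte⟩ : ⁅ι x, q⁆ ∈ T.map ι := by
        have h2 := hTn q (hQn.1 hq) x⁻¹ (T.inv_mem hx.1)
        have h3 := Subgroup.mul_mem (T.map ι) ⟨x, hx.1, rfl⟩ h2
        simpa [commutatorElement_def, mul_assoc] using h3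
      exact ⟨t, ⟨ht, show ι t ∈ Q from hte ▸ h1⟩, hte⟩
    have hUA : ⁅U.map ι, A⁆ = ⊥ := by
      rw [Subgroup.commutator_eq_bot_iff_le_centralizer]
      rintro _ ⟨u, hu, rfl⟩ _ ⟨x, hx, rfl⟩
      rw [← map_mul, ← map_mul, (hx.2 u hu)]
    have h1 : ⁅⁅A, Q⁆, A⁆ = ⊥ := le_bot_iff.mp ((Subgroup.commutator_mono hAQ le_rfl).trans hUA.le)
    have h2 : ⁅⁅Q, A⁆, A⁆ = ⊥ := by rwa [Subgroup.commutator_comm Q A]
    have h3 := Subgroup.commutator_commutator_eq_bot_of_rotate (H₁ := A) (H₂ := A) (H₃ := Q) h1 h2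
    rw [Subgroup.commutator_eq_bot_iff_le_centralizer] at h3
    refine Subgroup.commutator_le.mpr fun a ha b hb => ?_
    have hab : ⁅a, b⁆ ∈ T :=
      T.mul_mem (T.mul_mem (T.mul_mem ha.1 hb.1) (T.inv_mem ha.1)) (T.inv_mem hb.1)
    refine ⟨hab, hQc.2 Q (isConj_refl F hQn.1) ⟨hTS ⟨_, hab, rfl⟩, ?_⟩⟩
    refine h3 ?_
    rw [map_commutatorElement]
    exact Subgroup.commutator_mem_commutator ⟨a, ha, rfl⟩ ⟨b, hb, rfl⟩

end CfsgLib.Alperin
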