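import Cfsg.Agent.Lib.Alperin.Constrained
import Cfsg.Agent.Lib.FusionBasics.Group

/-!
Constrained fusion systems of groups: normal and subnormal subgroups, central quotients.
-/

set_option autoImplicit false
set_option linter.style.haveILetI false

namespace CfsgLib.Alperin

open Cfsg Cfsg.FusionSystem
open scoped commutatorElement

variable {p : ℕ} [Fact p.Prime] {G : Type*} [Group G] [Finite G]

/-- The pullback of a Sylow subgroup along an injective map with normal image is Sylow. -/
theorem exists_sylow_comap {H : Type*} [Group H] [Finite H] (R : Sylow p G) (ι : H →* G)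
    (hι : Function.Injective ι) (hn : ι.range.Normal) :
    ∃ T : Sylow p H, (T : Subgroup H) = (R : Subgroup G).comap ι := by
  have h1 : ¬ p ∣ (R : Subgroup G).relIndex ⊤ := by
    rw [Subgroup.relIndex_top_right]
    exact R.not_dvd_index
  have h2 := CfsgLib.FusionBasics.not_dvd_relIndex_of_le (N := (R : Subgroup G)) (C := ι.range)
    le_top le_top (by rw [Subgroup.normalizer_eq_top]; exact le_top) h1
  exact ⟨IsPGroup.toSylow (R.2.comap_of_injective ι hι) (by rwa [Subgroup.index_comap]),
    IsPGroup.toSylow_coe _ _⟩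

/-- The system of a group with normal image in a group with constrained system is constrained. -/
theorem group_isConstrained_of_normal {H : Type*} [Group H] [Finite H] (R : Sylow p G)
    (hR : (groupFusionSystem (R : Subgroup G)).IsConstrained p) (ι : H →* G)
    (hι : Function.Injective ι) (hn : ι.range.Normal) :
    (groupFusionSystem ((R : Subgroup G).comap ι)).IsConstrained p := by
  obtain ⟨T, hT⟩ := exists_sylow_comap R ι hι hn
  rw [← hT]
  refine isConstrained_of_subsystem R.2 hR ι hι ?_ ?_
    (CfsgLib.FusionBasics.group_isSaturated T) ?_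
  · rintro _ ⟨t, ht, rfl⟩
    rw [SetLike.mem_coe, hT] at ht
    exact ht
  · intro s hs t ht
    rw [hT] at ht ⊢
    obtain ⟨w, hw⟩ := hn.conj_mem _ ⟨t, rfl⟩ s
    refine ⟨w, ?_, hw⟩
    show ι w ∈ (R : Subgroup G)
    rw [hw]
    exact Subgroup.mul_mem _ (Subgroup.mul_mem _ hs ht) (Subgroup.inv_mem _ hs)
  · rintro P φ ⟨hPT, hφT, g, hg⟩
    refine ⟨conjHom (P.map ι) (ι g), CfsgLib.FusionBasics.conjHom_mem_group (ι g) ?_ ?_, ?_⟩
    · rintro _ ⟨x, hx, rfl⟩
      have := hPT hx
      rw [hT] at this
      exact this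
    · rintro _ ⟨x, hx, rfl⟩
      have := hφT ⟨x, hx⟩
      rw [hg, hT] at this
      simpa using this
    · intro x hx
      show ι g * ι x * (ι g)⁻¹ = ι (φ x)
      rw [hg, map_mul, map_mul, map_inv]

/-- Subnormal subgroups inherit constrained fusion systems. -/
theorem group_isConstrained_of_subnormal (R : Sylow p G)
    (hR : (groupFusionSystem (R : Subgroup G)).IsConstrained p) {H : Subgroup G}
    (hH : H.IsSubnormal) :
    (∃ T : Sylow p H, (T : Subgroup H) = (R : Subgroup G).subgroupOf H) ∧
      (groupFusionSystem ((R : Subgroup G).subgroupOf H)).IsConstrained p := by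
  induction hH with
  | top =>
    have hn : ((⊤ : Subgroup G).subtype).range.Normal := by
      rw [Subgroup.range_subtype]; infer_instance
    exact ⟨exists_sylow_comap R _ Subtype.val_injective hn,
      group_isConstrained_of_normal R hR _ Subtype.val_injective hn⟩
  | step H K hle hK hN ih =>
    obtain ⟨⟨T, hT⟩, hcK⟩ := ih
    rw [← hT] at hcK
    have hn : (Subgroup.inclusion hle).range.Normal := by
      rw [Subgroup.inclusion_range]; exact hN
    have he : (T : Subgroup K).comap (Subgroup.inclusion hle) = (R : Subgroup G).subgroupOf H := by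
      rw [hT]; rfl
    exact ⟨he ▸ exists_sylow_comap T _ (Subgroup.inclusion_injective hle) hn,
      he ▸ group_isConstrained_of_normal T hcK _ (Subgroup.inclusion_injective hle) hn⟩

/-- A central quotient of a group with constrained system has constrained system. -/
theorem group_isConstrained_of_central_quotient {G' : Type*} [Group G'] [Finite G'] (R : Sylow p G)
    (hR : (groupFusionSystem (R : Subgroup G)).IsConstrained p) (π : G →* G')
    (hπ : Function.Surjective π) (hker : π.ker ≤ Subgroup.center G) :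
    (groupFusionSystem ((R : Subgroup G).map π)).IsConstrained p := by
  obtain ⟨-, Q, hQn, hQc⟩ := hR
  let R' : Sylow p G' := R.mapSurjective hπ
  have hR' : (R' : Subgroup G') = (R : Subgroup G).map π := rfl
  rw [← hR']
  have hcR : centralizerIn (R : Subgroup G) Q ≤ Q := hQc.2 Q (isConj_refl _ hQn.1)
  obtain ⟨n, Qs, h0, hn, -, hchar, hc⟩ :=
    CfsgLib.FusionBasics.exists_central_series (isPGroup_of_le R.2 hQn.1)
  refine isConstrained_of_series R'.2 (CfsgLib.FusionBasics.group_isSaturated R')
    (Q.map π) (fun i => (Qs i).map π) (by rw [h0, Subgroup.map_bot]) (by rw [hn]) (fun i => ?_)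
    (fun i => Subgroup.map_mono (hchar i).1) (fun i => ?_) ?_
  · have hV := CfsgLib.FusionBasics.stronglyClosed_of_characteristic hQn (hchar i.succ).1
      (hchar i.succ).2
    refine ⟨Subgroup.map_mono ((hchar i.succ).1.trans hQn.1), fun W hW φ hφ w => ?_⟩
    obtain ⟨-, hφR, g', hg⟩ := hφ
    obtain ⟨x, hx, hxw⟩ := hW w.2
    obtain ⟨g, rfl⟩ := hπ g'
    obtain ⟨r, hr, hrw⟩ := hφR w
    have hxR : x ∈ (R : Subgroup G) := hQn.1 ((hchar i.succ).1 hx)
    have hz : r⁻¹ * (g * x * g⁻¹) ∈ π.ker := by
      rw [MonoidHom.mem_ker, map_mul, map_inv, hrw, hg, map_mul, map_mul, map_inv, hxw,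
        inv_mul_cancel]
    have hcomm : ∀ y, r⁻¹ * (g * x * g⁻¹) * y = y * (r⁻¹ * (g * x * g⁻¹)) := fun y =>
      ((Subgroup.mem_center_iff.mp (hker hz)) y).symm
    have hmem : g * x * g⁻¹ ∈ (R : Subgroup G) := by
      have hcz : Commute r (r⁻¹ * (g * x * g⁻¹)) := (hcomm r).symm
      obtain ⟨a, ha⟩ := R.2 ⟨x, hxR⟩
      obtain ⟨b, hb⟩ := R.2 ⟨r, hr⟩
      have ha' : x ^ p ^ a = 1 := congrArg Subtype.val ha
      have hb' : r ^ p ^ b = 1 := congrArg Subtype.val hb
      set z := r⁻¹ * (g * x * g⁻¹) with hzdef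
      have hzp : z ^ p ^ (a + b) = 1 := by
        have h1 : (r * z) ^ p ^ (a + b) = 1 := by
          rw [hzdef, mul_inv_cancel_left, ← MulAut.conj_apply, ← map_pow, pow_add, pow_mul, ha',
            one_pow, map_one]
        rw [hcz.mul_pow, pow_add, mul_comm, pow_mul r, hb', one_pow, one_mul, ← mul_comm,
          ← pow_add] at h1
        exact h1
      haveI : (Subgroup.zpowers z).Normal := ⟨fun m hm y => by
        obtain ⟨k, rfl⟩ := Subgroup.mem_zpowers_iff.mp hm
        have : y * z ^ k * y⁻¹ = z ^ k := by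
          rw [← (show Commute (z ^ k) y from Commute.zpow_left (hcomm y) k).eq, mul_inv_cancel_right]
        rw [this]
        exact Subgroup.zpow_mem _ (Subgroup.mem_zpowers z) k⟩
      have hzR : z ∈ (R : Subgroup G) := by
        refine IsPGroup.le_sylow_of_normal ?_ R (Subgroup.mem_zpowers z)
        intro m
        obtain ⟨k, hk⟩ := Subgroup.mem_zpowers_iff.mp m.2
        refine ⟨a + b, Subtype.ext ?_⟩
        show (m : G) ^ p ^ (a + b) = 1
        rw [← hk, ← zpow_natCast, ← zpow_mul, mul_comm, zpow_mul, zpow_natCast, hzp, one_zpow]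
      have := Subgroup.mul_mem _ hr hzR
      rwa [hzdef, mul_inv_cancel_left] at this
    have hmap : conjHom (Subgroup.zpowers x) g ∈
        (groupFusionSystem (R : Subgroup G)).Hom (Subgroup.zpowers x) := by
      refine CfsgLib.FusionBasics.conjHom_mem_group g (Subgroup.zpowers_le.mpr hxR) fun y hy => ?_
      obtain ⟨k, rfl⟩ := Subgroup.mem_zpowers_iff.mp hy
      rw [← MulAut.conj_apply, map_zpow]
      exact Subgroup.zpow_mem _ hmem k
    refine ⟨_, hV.2 _ (Subgroup.zpowers_le.mpr hx) _ hmap ⟨x, Subgroup.mem_zpowers x⟩, ?_⟩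
    show π (g * x * g⁻¹) = φ w
    rw [hg, map_mul, map_mul, map_inv, hxw]
  · rw [← Subgroup.map_commutator]
    exact Subgroup.map_mono (hc i)
  · set A := (R : Subgroup G) ⊓ (centralizerIn (R' : Subgroup G') (Q.map π)).comap π
    have hA : centralizerIn (R' : Subgroup G') (Q.map π) = A.map π := by
      refine le_antisymm (fun y hy => ?_) (by rintro _ ⟨x, hx, rfl⟩; exact hx.2)
      obtain ⟨x, hx, rfl⟩ := hy.1
      exact ⟨x, ⟨hx, hy⟩, rfl⟩
    have hAQ : ⁅A, Q⁆ ≤ Subgroup.center G := Subgroup.commutator_le.mpr fun a ha q hq => hker (by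
      rw [MonoidHom.mem_ker, map_commutatorElement, commutatorElement_eq_one_iff_mul_comm]
      exact (ha.2.2 (π q) ⟨q, hq, rfl⟩).symm)
    have h1 : ⁅⁅A, Q⁆, A⁆ = ⊥ := by
      rw [Subgroup.commutator_eq_bot_iff_le_centralizer]
      exact hAQ.trans (fun z hz a _ => Subgroup.mem_center_iff.mp hz a)
    have h2 : ⁅⁅Q, A⁆, A⁆ = ⊥ := by rwa [Subgroup.commutator_comm Q A]
    have h3 := Subgroup.commutator_commutator_eq_bot_of_rotate (H₁ := A) (H₂ := A) (H₃ := Q) h1 h2
    rw [Subgroup.commutator_eq_bot_iff_le_centralizer] at h3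
    rw [hA, ← Subgroup.map_commutator]
    refine Subgroup.map_mono fun z hz => hcR ⟨?_, h3 hz⟩
    exact (show ⁅A, A⁆ ≤ (R : Subgroup G) from Subgroup.commutator_le.mpr fun a ha b hb =>
      Subgroup.mul_mem _ (Subgroup.mul_mem _ (Subgroup.mul_mem _ ha.1 hb.1)
        (Subgroup.inv_mem _ ha.1)) (Subgroup.inv_mem _ hb.1)) hz

end CfsgLib.Alperin
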